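import Cfsg.Agent.Harada.Basic
import Mathlib.GroupTheory.SpecificGroups.Quaternion

/-!
# `Q₈ * Q₈` with small centralizer contains a self-centralizing eight-group
-/

set_option autoImplicit false
set_option linter.all false
set_option maxHeartbeats 1000000

namespace Cfsg.Agent.Harada

open scoped commutatorElement

universe u

namespace QPair

abbrev QQ := QuaternionGroup 2 × QuaternionGroup 2

/-- The class of an element of `Q₈` modulo the centre. -/
def cls : QuaternionGroup 2 → Fin 4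
  | .a i => if i = 0 ∨ i = 2 then 0 else 1
  | .xa i => if i = 0 ∨ i = 2 then 2 else 3

/-- The 3-cycle of the nonidentity classes. -/
def cyc : Fin 4 → Fin 4 := ![0, 2, 3, 1]

theorem cls_facts : ∀ p q : QuaternionGroup 2, cls (p * q) = cls (q * p) ∧ cls p⁻¹ = cls p := by decide

def P₁ : Subgroup QQ where
  carrier := {p | cls p.1 = cls p.2}
  one_mem' := by decide
  mul_mem' := by
    intro p q hp hq
    have h : ∀ a b c d : QuaternionGroup 2, cls a = cls b → cls c = cls d →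
        cls (a * c) = cls (b * d) := by decide
    exact h _ _ _ _ hp hq
  inv_mem' := by
    intro p hp
    have h : ∀ a b : QuaternionGroup 2, cls a = cls b → cls a⁻¹ = cls b⁻¹ := by decide
    exact h _ _ hp

def P₂ : Subgroup QQ where
  carrier := {p | cls p.2 = cyc (cls p.1)}
  one_mem' := by decide
  mul_mem' := by
    intro p q hp hq
    have h : ∀ a b c d : QuaternionGroup 2, cls b = cyc (cls a) → cls d = cyc (cls c) →
        cls (b * d) = cyc (cls (a * c)) := by decide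
    exact h _ _ _ _ hp hq
  inv_mem' := by
    intro p hp
    have h : ∀ a b : QuaternionGroup 2, cls b = cyc (cls a) → cls b⁻¹ = cyc (cls a⁻¹) := by decide
    exact h _ _ hp

/-- Representatives of the cosets. -/
def rep : Fin 3 → QQ := ![(.a 1, 1), (.xa 0, 1), (.xa 1, 1)]

def zq : QQ := (.a 2, 1)

def kz : QQ := (.a 2, .a 2)

theorem mem₁ (p : QQ) : p ∈ P₁ ↔ cls p.1 = cls p.2 := Iff.rfl

theorem mem₂ (p : QQ) : p ∈ P₂ ↔ cls p.2 = cyc (cls p.1) := Iff.rfl

instance : DecidablePred (· ∈ P₁) := fun p => decidable_of_iff _ (mem₁ p).symm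

instance : DecidablePred (· ∈ P₂) := fun p => decidable_of_iff _ (mem₂ p).symm

/-- What is needed of either subgroup. -/
structure Good (P : Subgroup QQ) [DecidablePred (· ∈ P)] : Prop where
  kz : kz ∈ P
  card : (Finset.univ.filter (· ∈ P)).card = 16
  comm : ∀ p ∈ P, ∀ q ∈ P, p * q = q * p ∨ p * q = QPair.kz * (q * p)
  sq : ∀ p ∈ P, p * p = 1 ∨ p * p = QPair.kz
  cover : ∀ i : Fin 3, ∀ q : QQ, q ∈ P ∨ (rep i)⁻¹ * q ∈ P ∨
    (rep (i + 1))⁻¹ * q ∈ P ∨ (rep i * rep (i + 1))⁻¹ * q ∈ P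
  reps : ∀ q : QQ, q ∈ P ∨ ∃ i, (rep i)⁻¹ * q ∈ P
  sqrep : ∀ i, rep i * rep i ∈ P
  norm : ∀ i, ∀ p ∈ P, rep i * p * (rep i)⁻¹ ∈ P
  flip : ∀ i, ∃ a ∈ P, a * rep i * a⁻¹ * (rep i)⁻¹ = zq
  move : ∀ i, ∃ w ∈ P, w * rep i = rep i * w ∧ w * rep (i + 1) * w⁻¹ * (rep (i + 1))⁻¹ = zq
  fix : ∀ i, ∀ p ∈ P, (p * rep i = rep i * p ∨ p * rep i = QPair.kz * (rep i * p)) →
    (p * rep (i + 1) = rep (i + 1) * p ∨ p * rep (i + 1) = QPair.kz * (rep (i + 1) * p)) →
    p = 1 ∨ p = QPair.kz ∨ p = zq ∨ p = zq * QPair.kz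
  centre : QPair.zq ∈ P

theorem good₁ : Good P₁ := by
  constructor <;> decide +kernel

theorem good₂ : Good P₂ := by
  constructor <;> decide +kernel

theorem inter : ∀ p : QQ, p ∈ P₁ → p ∈ P₂ → p = 1 ∨ p = kz ∨ p = zq ∨ p = zq * kz := by decide

theorem zq_facts : (∀ q : QQ, zq * q = q * zq) ∧ zq * zq = 1 ∧
    (∀ p : QQ, p ∈ Subgroup.center QQ → p.1 = 1 ∨ p.1 = QuaternionGroup.a 2) := by
  refine ⟨by decide, by decide, ?_⟩
  intro p hp
  have h : ∀ x : QuaternionGroup 2, (∀ y, y * x = x * y) → x = 1 ∨ x = QuaternionGroup.a 2 := by decide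
  exact h p.1 fun y => congrArg Prod.fst (Subgroup.mem_center_iff.1 hp (y, 1))

end QPair

variable {S : Type u} [Group S] [Finite S]

open QPair in
theorem exists_selfCentralizing_eight (hS : IsPGroup 2 S) (Q Q₁ Q₂ : Subgroup S)
    (e₁ : Q₁ ≃* QuaternionGroup 2) (e₂ : Q₂ ≃* QuaternionGroup 2)
    (hcomm : ∀ a ∈ Q₁, ∀ b ∈ Q₂, a * b = b * a) (hQ : Q₁ ⊔ Q₂ = Q) (hQ32 : Nat.card Q = 32)
    (hC : Subgroup.centralizer (Q : Set S) ≤ Q) :
    ∃ A : Subgroup S, Cfsg.IsElementaryAbelian 2 A ∧ Nat.card A = 8 ∧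
      Subgroup.centralizer (A : Set S) = A := by
  classical
  let f₁ : QuaternionGroup 2 →* S := Q₁.subtype.comp e₁.symm.toMonoidHom
  let f₂ : QuaternionGroup 2 →* S := Q₂.subtype.comp e₂.symm.toMonoidHom
  have hf : ∀ p q, Commute (f₁ p) (f₂ q) := fun p q =>
    hcomm _ (e₁.symm p).2 _ (e₂.symm q).2
  let φ : QQ →* S := MonoidHom.noncommCoprod f₁ f₂ hf
  have hφ : ∀ p : QQ, φ p = f₁ p.1 * f₂ p.2 := fun p => rfl
  have hr₁ : f₁.range = Q₁ := by
    rw [MonoidHom.range_comp, MonoidHom.range_eq_top.2 e₁.symm.surjective,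
      ← MonoidHom.range_eq_map, Subgroup.range_subtype]
  have hr₂ : f₂.range = Q₂ := by
    rw [MonoidHom.range_comp, MonoidHom.range_eq_top.2 e₂.symm.surjective,
      ← MonoidHom.range_eq_map, Subgroup.range_subtype]
  have hrange : φ.range = Q := by rw [MonoidHom.noncommCoprod_range, hr₁, hr₂, hQ]
  -- the kernel
  have hkc : Nat.card φ.ker = 2 := by
    have h1 := φ.ker.card_mul_index
    rw [Subgroup.index_ker, hrange, hQ32, Nat.card_eq_fintype_card (α := QQ)] at h1
    rw [show Fintype.card QQ = 64 from rfl] at h1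
    omega
  obtain ⟨⟨k, hk⟩, hk1, huniq⟩ := (Nat.card_eq_two_iff' (1 : φ.ker)).1 hkc
  have hi₁ : Function.Injective f₁ := Q₁.subtype_injective.comp e₁.symm.injective
  have hi₂ : Function.Injective f₂ := Q₂.subtype_injective.comp e₂.symm.injective
  have hkeq : k = kz := by
    have hke : f₁ k.1 * f₂ k.2 = 1 := hk
    have h1 : k.1 = 1 ∨ k.1 = QuaternionGroup.a 2 := by
      have hx : ∀ x : QuaternionGroup 2, (∀ y, y * x = x * y) →
          x = 1 ∨ x = QuaternionGroup.a 2 := by decide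
      refine hx _ fun y => hi₁ ?_
      rw [map_mul, map_mul, eq_inv_of_mul_eq_one_left hke]
      exact ((hf y k.2).inv_right).eq
    have h2 : k.2 = 1 ∨ k.2 = QuaternionGroup.a 2 := by
      have hx : ∀ x : QuaternionGroup 2, (∀ y, y * x = x * y) →
          x = 1 ∨ x = QuaternionGroup.a 2 := by decide
      refine hx _ fun y => hi₂ ?_
      rw [map_mul, map_mul, eq_inv_of_mul_eq_one_right hke]
      exact ((hf k.1 y).symm.inv_right).eq
    have hne : k ≠ 1 := fun e => hk1 (Subtype.ext e)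
    rcases h1 with h1 | h1 <;> rcases h2 with h2 | h2
    · exact absurd (Prod.ext h1 h2) hne
    · rw [h1, map_one, one_mul] at hke
      exact absurd (Prod.ext h1 (hi₂ (hke.trans (map_one f₂).symm))) hne
    · rw [h2, map_one, mul_one] at hke
      exact absurd (Prod.ext (hi₁ (hke.trans (map_one f₁).symm)) h2) hne
    · exact Prod.ext h1 h2
  have hker : ∀ p, φ p = 1 ↔ p = 1 ∨ p = kz := by
    intro p
    refine ⟨fun h => ?_, ?_⟩
    · by_cases hp : p = 1
      · exact Or.inl hp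
      · exact Or.inr ((congrArg Subtype.val (huniq ⟨p, h⟩ fun e => hp
          (congrArg Subtype.val e))).trans hkeq)
    · rintro (rfl | rfl)
      · exact map_one φ
      · exact hkeq ▸ hk
  have hφkz : φ kz = 1 := (hker _).2 (Or.inr rfl)
  set z := φ zq with hz
  have hzz : z * z = 1 := by rw [hz, ← map_mul, zq_facts.2.1, map_one]
  have hzQ : ∀ q ∈ Q, z * q = q * z := fun q hq => by
    obtain ⟨p, rfl⟩ := hrange.symm ▸ hq
    rw [hz, ← map_mul, ← map_mul, zq_facts.1]
  have hzeq : ∀ p, p = 1 ∨ p = kz ∨ p = zq ∨ p = zq * kz → φ p = 1 ∨ φ p = z := by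
    rintro p (rfl | rfl | rfl | rfl)
    · exact Or.inl (map_one φ)
    · exact Or.inl hφkz
    · exact Or.inr rfl
    · right; rw [map_mul, hφkz, mul_one]
  have hφQ : ∀ p, φ p ∈ Q := fun p => hrange ▸ ⟨p, rfl⟩
  -- properties of each image
  have main : ∀ (P : Subgroup QQ) [DecidablePred (· ∈ P)], Good P →
      Cfsg.IsElementaryAbelian 2 (P.map φ) ∧ Nat.card (P.map φ) = 8 ∧
      (Subgroup.centralizer ((P.map φ : Subgroup S) : Set S) = P.map φ ∨
        ∃ c, c ∈ Subgroup.centralizer ((P.map φ : Subgroup S) : Set S) ∧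
          (∀ q ∈ Q, c * q * c⁻¹ ∈ Q) ∧
          ∀ q ∈ Q, ⁅c, q⁆ = 1 ∨ ⁅c, q⁆ = z → q ∈ P.map φ) := by
    intro P _ g
    set A := P.map φ with hA
    have hAQ : A ≤ Q := hrange ▸ Subgroup.map_le_range φ P
    have hAc : ∀ x ∈ A, ∀ y ∈ A, x * y = y * x := by
      rintro _ ⟨p, hp, rfl⟩ _ ⟨q, hq, rfl⟩
      rw [← map_mul, ← map_mul]
      rcases g.comm p hp q hq with e | e
      · rw [e]
      · rw [e, map_mul, hφkz, one_mul]
    have hA2 : ∀ x ∈ A, x * x = 1 := by
      rintro _ ⟨p, hp, rfl⟩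
      rw [← map_mul]
      rcases g.sq p hp with e | e
      · rw [e, map_one]
      · rw [e, hφkz]
    have hP16 : Nat.card P = 16 := by
      rw [Nat.card_eq_fintype_card, ← g.card]
      exact Fintype.card_subtype _
    have hA8 : Nat.card A = 8 := by
      have h1 := (φ.ker.subgroupOf P).card_mul_index
      have h2 : Nat.card (φ.ker.subgroupOf P) = 2 := by
        refine (Nat.card_congr (Subgroup.subgroupOfEquivOfLe ?_).toEquiv).trans hkc
        intro p hp
        rcases (hker p).1 hp with rfl | rfl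
        · exact P.one_mem
        · exact g.kz
      have h3 : (φ.ker.subgroupOf P).index = Nat.card A := by
        have e1 : φ.ker.subgroupOf P = (φ.comp P.subtype).ker := by
          rw [← MonoidHom.comap_ker]; rfl
        rw [e1, Subgroup.index_ker, MonoidHom.range_comp, Subgroup.range_subtype]
      rw [h2, h3, hP16] at h1
      omega
    refine ⟨⟨⟨⟨fun x y => Subtype.ext (hAc x x.2 y y.2)⟩⟩, fun x hx => by rw [sq]; exact hA2 x hx⟩,
      hA8, ?_⟩
    by_cases hU : Subgroup.centralizer (A : Set S) = A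
    · exact Or.inl hU
    right
    set U := Subgroup.centralizer (A : Set S) with hUdef
    have hAU : A ≤ U := fun x hx => Subgroup.mem_centralizer_iff.2 fun y hy => hAc y hy x hx
    have hAn : ∀ q ∈ Q, ∀ a ∈ A, q * a * q⁻¹ ∈ A := by
      intro q hq
      obtain ⟨r, rfl⟩ := hrange.symm ▸ hq
      have key : ∀ p ∈ P, r * p * r⁻¹ ∈ P := by
        intro p hp
        rcases g.reps r with h | ⟨i, h⟩
        · exact P.mul_mem (P.mul_mem h hp) (P.inv_mem h)
        · have e : r * p * r⁻¹ = rep i * (((rep i)⁻¹ * r) * p * ((rep i)⁻¹ * r)⁻¹) * (rep i)⁻¹ := by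
            group
          rw [e]
          exact g.norm i _ (P.mul_mem (P.mul_mem h hp) (P.inv_mem h))
      rintro _ ⟨p, hp, rfl⟩
      exact ⟨r * p * r⁻¹, key p hp, by simp⟩
    -- work inside the group generated by `Q` and `U`
    set N := Subgroup.normalizer (A : Set S) with hN
    have hQN : Q ≤ N := fun q hq => by
      rw [hN, Subgroup.mem_normalizer_iff]
      intro a
      refine ⟨fun ha => hAn q hq a ha, fun ha => ?_⟩
      have := hAn q⁻¹ (Q.inv_mem hq) _ ha
      simpa [mul_assoc] using this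
    have hUN : U ≤ N := fun u hu => by
      rw [hN, Subgroup.mem_normalizer_iff]
      have hux : ∀ a ∈ A, u * a * u⁻¹ = a := fun a ha => by
        rw [← Subgroup.mem_centralizer_iff.1 hu a ha, mul_inv_cancel_right]
      intro a
      refine ⟨fun ha => by rwa [hux a ha], fun ha => ?_⟩
      have : u * a * u⁻¹ = u * (u * a * u⁻¹) * u⁻¹ := (hux _ ha).symm
      have e : a = u * a * u⁻¹ := mul_left_cancel (mul_right_cancel this)
      rwa [e]
    haveI : (U.subgroupOf N).Normal := ⟨fun x hx y => by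
      rw [Subgroup.mem_subgroupOf, Subgroup.mem_centralizer_iff]
      intro a ha
      have h1 : (y : S)⁻¹ * a * y ∈ A := by
        have := (Subgroup.mem_normalizer_iff.1 (N.inv_mem y.2) a).1 ha
        simpa using this
      have h2 := Subgroup.mem_centralizer_iff.1 (Subgroup.mem_subgroupOf.1 hx) _ h1
      simp only [Subgroup.coe_mul, Subgroup.coe_inv]
      calc a * ((y : S) * x * (y : S)⁻¹) = (y : S) * (((y : S)⁻¹ * a * y) * x) * (y : S)⁻¹ := by group
        _ = (y : S) * (x * ((y : S)⁻¹ * a * y)) * (y : S)⁻¹ := by rw [h2]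
        _ = _ := by group⟩
    haveI : (A.subgroupOf N).Normal := Subgroup.normal_subgroupOf_iff_le_normalizer (hAU.trans hUN) |>.2 le_rfl
    obtain ⟨⟨c, hcN⟩, hcU, hcA, hc2, hcs⟩ := exists_step (hS.to_subgroup N) (A.subgroupOf N)
      (U.subgroupOf N) (fun x hx => hAU hx) (fun e => hU (le_antisymm (fun x hx => by
        have : (⟨x, hUN hx⟩ : N) ∈ A.subgroupOf N := e ▸ (show (⟨x, hUN hx⟩ : N) ∈ U.subgroupOf N from hx)
        exact this) hAU))
    rw [Subgroup.mem_subgroupOf] at hcU hcA hc2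
    simp only [Subgroup.coe_mul] at hc2
    have hcq : ∀ q ∈ Q, ⁅q, c⁆ ∈ A := fun q hq => by
      have := hcs ⟨q, hQN hq⟩
      rw [Subgroup.mem_subgroupOf] at this
      rw [commutatorElement_def]
      exact this
    have hcQ : ∀ q ∈ Q, ⁅c, q⁆ ∈ A := fun q hq => by
      rw [← commutatorElement_inv]; exact A.inv_mem (hcq q hq)
    refine ⟨c, hcU, fun q hq => ?_, fun q hq hbr => ?_⟩
    · have : c * q * c⁻¹ = ⁅c, q⁆ * q := by rw [commutatorElement_def]; group
      rw [this]; exact Q.mul_mem (hAQ (hcQ q hq)) hq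
    -- if `c` fixed a further element modulo `z`, it could be corrected to centralize `Q`
    by_contra hqA
    have cA : ∀ a ∈ A, c * a = a * c := fun a ha => (Subgroup.mem_centralizer_iff.1 hcU a ha).symm
    obtain ⟨r, rfl⟩ := hrange.symm ▸ hq
    obtain ⟨i, hi⟩ := (g.reps r).resolve_left fun h => hqA ⟨r, h, rfl⟩
    set t := φ (rep i) with ht
    set t' := φ (rep (i + 1)) with ht'
    have hbt : ⁅c, t⁆ = ⁅c, φ r⁆ := by
      have hd : φ r = t * φ ((rep i)⁻¹ * r) := by rw [ht, ← map_mul, mul_inv_cancel_left]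
      have hca : Commute c (φ ((rep i)⁻¹ * r)) := cA _ ⟨_, hi, rfl⟩
      rw [hd]
      simp only [commutatorElement_def]
      calc c * t * c⁻¹ * t⁻¹ = c * t * (φ ((rep i)⁻¹ * r) * c⁻¹) * (φ ((rep i)⁻¹ * r))⁻¹ *
            c * c⁻¹ * t⁻¹ := by
            rw [← hca.inv_left.eq]; group
        _ = _ := by group
    rw [← hbt] at hbr
    -- adjust so as to centralize `t`
    obtain ⟨c₁, hc₁U, hc₁t, hc₁A, hc₁Q⟩ : ∃ c₁, c₁ ∈ U ∧ c₁ * t = t * c₁ ∧ c₁ ∉ A ∧
        ∀ q ∈ Q, ⁅c₁, q⁆ ∈ A := by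
      rcases hbr with h | h
      · exact ⟨c, hcU, commutatorElement_eq_one_iff_mul_comm.1 h, hcA, hcQ⟩
      obtain ⟨a, ha, hat⟩ := g.flip i
      have haA : φ a ∈ A := ⟨a, ha, rfl⟩
      refine ⟨φ a * c, U.mul_mem (hAU haA) hcU, ?_,
        fun e => hcA ((A.mul_mem_cancel_left haA).1 e), fun q hq => ?_⟩
      · have e1 : φ a * t * (φ a)⁻¹ = z * t := by
          rw [hz, ← hat, ht]; simp only [map_mul, map_inv]; group
        have e2 : c * t * c⁻¹ = z * t := by rw [← h, commutatorElement_def]; group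
        have e3 : φ a * z = z * φ a := (hzQ _ (hφQ a)).symm
        rw [mul_inv_eq_iff_eq_mul] at e1 e2
        calc φ a * c * t = φ a * (z * t * c) := by rw [mul_assoc, e2]
          _ = (φ a * z) * t * c := by group
          _ = z * (φ a * t) * c := by rw [e3]; group
          _ = (z * z) * t * φ a * c := by rw [e1]; group
          _ = t * (φ a * c) := by rw [hzz, one_mul, mul_assoc]
      · have e : ⁅φ a * c, q⁆ = φ a * ⁅c, q⁆ * (φ a)⁻¹ * ⁅φ a, q⁆ := by
          simp only [commutatorElement_def]; group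
        rw [e]
        refine A.mul_mem (A.mul_mem (A.mul_mem haA (hcQ q hq)) (A.inv_mem haA)) ?_
        have : ⁅φ a, q⁆ = φ a * (q * (φ a)⁻¹ * q⁻¹) := by simp only [commutatorElement_def]; group
        rw [this]; exact A.mul_mem haA (hAn q hq _ (A.inv_mem haA))
    have c₁A : ∀ a ∈ A, c₁ * a = a * c₁ := fun a ha =>
      (Subgroup.mem_centralizer_iff.1 hc₁U a ha).symm
    -- the bracket with `t'` lies in `{1, z}`
    set β := ⁅c₁, t'⁆ with hβ
    have hβA : β ∈ A := hc₁Q _ (hφQ _)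
    obtain ⟨p, hp, hpβ⟩ := hβA
    have ht2 : t * t ∈ A := ⟨_, g.sqrep i, by rw [map_mul]⟩
    have ht'2 : t' * t' ∈ A := ⟨_, g.sqrep (i + 1), by rw [map_mul]⟩
    have hβt' : β * t' = t' * β := by
      have e1 : c₁ * t' * c₁⁻¹ = β * t' := by rw [hβ, commutatorElement_def]; group
      have e2 : c₁ * (t' * t') * c₁⁻¹ = t' * t' := by rw [c₁A _ ht'2, mul_inv_cancel_right]
      have e3 : β * t' * (β * t') = t' * t' := by
        rw [← e1, ← e2]; group
      have hβA' : β ∈ A := hc₁Q _ (hφQ _)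
      have hb2 := hA2 β hβA'
      calc β * t' = (β * t' * (β * t')) * t'⁻¹ * β⁻¹ := by group
        _ = t' * β⁻¹ := by rw [e3]; group
        _ = t' * β := by rw [inv_eq_of_mul_eq_one_right hb2]
    have hβt : β * t = t * β := by
      -- `⁅t, t'⁆` lies in `A`, hence commutes with `c₁`
      have hcomm' : ⁅t', t⁆ ∈ A := by
        have h1 : ⁅rep (i + 1), rep i⁆ ∈ P := by
          have h : ∀ j : Fin 3, ⁅rep (j + 1), rep j⁆ = 1 ∨ ⁅rep (j + 1), rep j⁆ = zq := by decide
          rcases h i with e | e <;> rw [e]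
          · exact P.one_mem
          · exact g.centre
        exact ⟨_, h1, map_commutatorElement φ _ _⟩
      have e4 : t * t' * t⁻¹ = ⁅t', t⁆⁻¹ * t' := by simp only [commutatorElement_def]; group
      set k := ⁅t', t⁆⁻¹ with hkdef
      have hkA : k ∈ A := A.inv_mem hcomm'
      have hkc : c₁ * k = k * c₁ := c₁A k hkA
      have hkβ : k * β = β * k := hAc _ hkA _ (hc₁Q _ (hφQ _))
      have e5 : t * β * t⁻¹ = β := by
        calc t * β * t⁻¹ = (t * c₁) * t' * c₁⁻¹ * t'⁻¹ * t⁻¹ := by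
              rw [hβ, commutatorElement_def]; group
          _ = c₁ * (t * t' * t⁻¹) * (t * c₁⁻¹) * t'⁻¹ * t⁻¹ := by rw [← hc₁t]; group
          _ = c₁ * (t * t' * t⁻¹) * c₁⁻¹ * (t * t' * t⁻¹)⁻¹ := by
              rw [← (show Commute c₁ t from hc₁t).inv_left.eq]; group
          _ = c₁ * (k * t') * c₁⁻¹ * (k * t')⁻¹ := by rw [e4]
          _ = (c₁ * k) * t' * c₁⁻¹ * t'⁻¹ * k⁻¹ := by group
          _ = k * β * k⁻¹ := by rw [hkc, hβ, commutatorElement_def]; group
          _ = β := by rw [hkβ, mul_inv_cancel_right]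
      exact (mul_inv_eq_iff_eq_mul.1 e5).symm
    have hcases : β = 1 ∨ β = z := by
      have lift : ∀ j, β * φ (rep j) = φ (rep j) * β →
          p * rep j = rep j * p ∨ p * rep j = kz * (rep j * p) := by
        intro j h
        rw [← hpβ, ← map_mul, ← map_mul] at h
        have h1 : φ ((p * rep j) * (rep j * p)⁻¹) = 1 := by rw [map_mul, map_inv, h, mul_inv_cancel]
        rcases (hker _).1 h1 with e | e
        · exact Or.inl (mul_inv_eq_one.1 e)
        · exact Or.inr (mul_inv_eq_iff_eq_mul.1 e)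
      rw [← hpβ]
      exact hzeq p (g.fix i p hp (lift i hβt) (lift (i + 1) hβt'))
    obtain ⟨c₂, hc₂U, hc₂t, hc₂t', hc₂A⟩ : ∃ c₂, c₂ ∈ U ∧ c₂ * t = t * c₂ ∧ c₂ * t' = t' * c₂ ∧
        c₂ ∉ A := by
      rcases hcases with h | h
      · exact ⟨c₁, hc₁U, hc₁t, commutatorElement_eq_one_iff_mul_comm.1 h, hc₁A⟩
      obtain ⟨w, hw, hwt, hwt'⟩ := g.move i
      have hwA : φ w ∈ A := ⟨w, hw, rfl⟩
      refine ⟨φ w * c₁, U.mul_mem (hAU hwA) hc₁U, ?_, ?_,
        fun e => hc₁A ((A.mul_mem_cancel_left hwA).1 e)⟩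
      · have : Commute (φ w) t := by
          show φ w * φ (rep i) = φ (rep i) * φ w
          rw [← map_mul, hwt, map_mul]
        exact (this.mul_left hc₁t).eq
      · have e1 : φ w * t' * (φ w)⁻¹ = z * t' := by
          rw [hz, ← hwt', ht']; simp only [map_mul, map_inv]; group
        have e2 : c₁ * t' * c₁⁻¹ = z * t' := by rw [← h, hβ, commutatorElement_def]; group
        have e3 : φ w * z = z * φ w := (hzQ _ (hφQ w)).symm
        rw [mul_inv_eq_iff_eq_mul] at e1 e2
        calc φ w * c₁ * t' = φ w * (z * t' * c₁) := by rw [mul_assoc, e2]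
          _ = (φ w * z) * t' * c₁ := by group
          _ = z * (φ w * t') * c₁ := by rw [e3]; group
          _ = (z * z) * t' * φ w * c₁ := by rw [e1]; group
          _ = t' * (φ w * c₁) := by rw [hzz, one_mul, mul_assoc]
    have hc₂C : c₂ ∈ Subgroup.centralizer (Q : Set S) := by
      rw [Subgroup.mem_centralizer_iff]
      intro y hy
      obtain ⟨s, rfl⟩ := hrange.symm ▸ hy
      have cP : ∀ v ∈ P, Commute (φ v) c₂ := fun v hv =>
        Subgroup.mem_centralizer_iff.1 hc₂U _ ⟨v, hv, rfl⟩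
      have dec : ∀ x : QQ, Commute (φ x) c₂ → x⁻¹ * s ∈ P → Commute (φ s) c₂ := fun x hx hxs => by
        have := hx.mul_left (cP _ hxs)
        rwa [← map_mul, mul_inv_cancel_left] at this
      rcases g.cover i s with h | h | h | h
      · exact (cP _ h).eq
      · exact (dec _ (show Commute t c₂ from hc₂t.symm) h).eq
      · exact (dec _ (show Commute t' c₂ from hc₂t'.symm) h).eq
      · refine (dec _ ?_ h).eq
        rw [map_mul]
        exact (show Commute t c₂ from hc₂t.symm).mul_left hc₂t'.symm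
    -- then `c₂ ∈ Q` centralizes `A`, so lies in it
    obtain ⟨v, rfl⟩ := hrange.symm ▸ hC hc₂C
    rcases g.reps v with h | ⟨j, hj⟩
    · exact hc₂A ⟨v, h, rfl⟩
    · obtain ⟨a, ha, hat⟩ := g.flip j
      have haA : φ a ∈ A := ⟨a, ha, rfl⟩
      have hcomm2 : Commute (φ a) (φ v) := Subgroup.mem_centralizer_iff.1 hc₂U _ haA
      have hd : Commute (φ a) (φ ((rep j)⁻¹ * v)) := hAc _ haA _ ⟨_, hj, rfl⟩
      have h3 : Commute (φ a) (φ (rep j)) := by
        have := hcomm2.mul_right hd.inv_right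
        rwa [← map_inv, ← map_mul, mul_inv_rev, inv_inv, mul_inv_cancel_left] at this
      have : φ zq = 1 := by
        rw [← hat]; simp only [map_mul, map_inv]
        rw [h3.eq]; group
      rcases (hker _).1 this with e | e <;> exact absurd e (by decide)
  obtain ⟨hA1, hA18, h1⟩ := main P₁ good₁
  obtain ⟨hA2, hA28, h2⟩ := main P₂ good₂
  rcases h1 with h1 | ⟨c₁, hc₁, hc₁Q, hfix₁⟩
  · exact ⟨_, hA1, hA18, h1⟩
  rcases h2 with h2 | ⟨c₂, hc₂, hc₂Q, hfix₂⟩
  · exact ⟨_, hA2, hA28, h2⟩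
  exfalso
  set X := Subgroup.normalizer (Q : Set S) with hX
  have hmem : ∀ c, (∀ q ∈ Q, c * q * c⁻¹ ∈ Q) → c ∈ X := fun c hc => by
    rw [hX, Subgroup.mem_normalizer_iff]
    intro q
    refine ⟨hc q, fun hq => ?_⟩
    obtain ⟨q', hq'⟩ := ((Finite.injective_iff_surjective (f := fun y : Q => (⟨c * y * c⁻¹, hc y y.2⟩ : Q))).1
      fun y y' e => Subtype.ext (by simpa using congrArg Subtype.val e)) ⟨_, hq⟩
    have : c * (q' : S) * c⁻¹ = c * q * c⁻¹ := congrArg Subtype.val hq'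
    simp at this
    exact this ▸ q'.2
  have hQX : Q ≤ X := Subgroup.le_normalizer
  haveI : (Q.subgroupOf X).Normal := Subgroup.normal_in_normalizer
  set K := (Subgroup.zpowers z).subgroupOf X with hK
  have hzel : ∀ y ∈ Subgroup.zpowers z, y = 1 ∨ y = z := by
    intro y hy
    obtain ⟨n, rfl⟩ := Subgroup.mem_zpowers_iff.1 hy
    rcases Int.even_or_odd n with ⟨m, rfl⟩ | ⟨m, rfl⟩
    · left; rw [zpow_add, ← (Commute.refl z).mul_zpow, hzz, one_zpow]
    · right; rw [zpow_add, two_mul, zpow_add, ← (Commute.refl z).mul_zpow, hzz, one_zpow, one_mul, zpow_one]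
  have hzmem : z ∈ Q := hφQ _
  have hzX : ∀ x ∈ X, x * z * x⁻¹ = z := by
    intro x hx
    have h1 : x * z * x⁻¹ ∈ Q := (Subgroup.mem_normalizer_iff.1 hx z).1 hzmem
    obtain ⟨p, hp⟩ := hrange.symm ▸ h1
    -- the image is central in `Q`, and is not trivial
    have hcent : ∀ q ∈ Q, (x * z * x⁻¹) * q = q * (x * z * x⁻¹) := fun q hq => by
      have h2 : x⁻¹ * q * x ∈ Q := by
        have := (Subgroup.mem_normalizer_iff.1 (X.inv_mem hx) q).1 hq
        simpa using this
      have h3 := hzQ _ h2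
      calc (x * z * x⁻¹) * q = x * (z * (x⁻¹ * q * x)) * x⁻¹ := by group
        _ = x * ((x⁻¹ * q * x) * z) * x⁻¹ := by rw [h3]
        _ = q * (x * z * x⁻¹) := by group
    have hne : x * z * x⁻¹ ≠ 1 := fun e => by
      have : z = 1 := by simpa using e
      rcases (hker _).1 this with e | e <;> exact absurd e (by decide)
    have hlift : ∀ q : QQ, p * q = q * p ∨ p * q = kz * (q * p) := by
      intro q
      have h := hcent (φ q) (hφQ q)
      rw [← hp, ← map_mul, ← map_mul] at h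
      have h1 : φ ((p * q) * (q * p)⁻¹) = 1 := by rw [map_mul, map_inv, h, mul_inv_cancel]
      rcases (hker _).1 h1 with e | e
      · exact Or.inl (mul_inv_eq_one.1 e)
      · exact Or.inr (mul_inv_eq_iff_eq_mul.1 e)
    have hdec : ∀ p : QQ, (∀ q : QQ, p * q = q * p ∨ p * q = kz * (q * p)) →
        p = 1 ∨ p = kz ∨ p = zq ∨ p = zq * kz := by decide
    rcases hzeq p (hdec p hlift) with e | e
    · exact absurd (hp.symm.trans e) hne
    · rw [← hp, e]
  haveI : K.Normal := ⟨fun y hy g => by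
    rw [hK, Subgroup.mem_subgroupOf] at hy ⊢
    simp only [Subgroup.coe_mul, Subgroup.coe_inv]
    rcases hzel _ hy with e | e <;> rw [e]
    · simp
    · rw [hzX _ g.2]; exact Subgroup.mem_zpowers z⟩
  have hKQ : K ≤ Q.subgroupOf X := fun y hy => by
    rw [Subgroup.mem_subgroupOf]
    exact (Subgroup.zpowers_le.2 hzmem) hy
  have hne : K ≠ Q.subgroupOf X := fun e => by
    have h3 : φ (rep 0) ∈ Q := hφQ _
    have : (⟨φ (rep 0), hQX h3⟩ : X) ∈ K := e ▸ h3
    rcases hzel _ this with h | h <;> simp only [Subgroup.coe_subtype] at h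
    · rcases (hker _).1 h with e' | e' <;> exact absurd e' (by decide)
    · rw [hz, ← mul_inv_eq_one, ← map_inv, ← map_mul] at h
      rcases (hker _).1 h with e' | e' <;> exact absurd e' (by decide)
  obtain ⟨⟨q, hqX⟩, hqQ, hqK, -, hqs⟩ := exists_step (hS.to_subgroup X) K _ hKQ hne
  have hbr : ∀ c, (∀ y ∈ Q, c * y * c⁻¹ ∈ Q) → ⁅c, q⁆ = 1 ∨ ⁅c, q⁆ = z := fun c hc => by
    have := hqs ⟨c, hmem c hc⟩
    rw [hK, Subgroup.mem_subgroupOf] at this
    rw [commutatorElement_def]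
    exact hzel _ this
  obtain ⟨p₁, hp₁, hpq₁⟩ := hfix₁ q hqQ (hbr c₁ hc₁Q)
  obtain ⟨p₂, hp₂, hpq₂⟩ := hfix₂ q hqQ (hbr c₂ hc₂Q)
  have h12 : φ (p₁⁻¹ * p₂) = 1 := by rw [map_mul, map_inv, hpq₁, hpq₂, inv_mul_cancel]
  have hp₁₂ : p₁ ∈ P₂ := by
    rcases (hker _).1 h12 with e | e
    · rw [inv_mul_eq_one] at e; exact e ▸ hp₂
    · have e' : p₁ = p₂ * kz⁻¹ := by rw [← e]; group
      rw [e']; exact P₂.mul_mem hp₂ (P₂.inv_mem good₂.kz)
  apply hqK
  rw [hK, Subgroup.mem_subgroupOf]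
  show q ∈ Subgroup.zpowers z
  rcases hzeq p₁ (inter p₁ hp₁ hp₁₂) with e | e <;> rw [← hpq₁, e]
  · exact Subgroup.one_mem _
  · exact Subgroup.mem_zpowers z

end Cfsg.Agent.Harada
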