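import Cfsg.Agent.Harada.Basic
import Cfsg.Agent.TwoGroups.SectionalTwo
import Cfsg.Agent.TwoGroups.QuasiDihedral
import Cfsg.Agent.S1232

/-!
# Sectional rank with a dihedral or quasi-dihedral by four-group centralizer
-/

set_option autoImplicit false
set_option linter.all false

namespace Cfsg.Agent.Harada

open scoped commutatorElement

universe u v

/-- A sectional bound inherited from a Sylow 2-subgroup. -/
theorem sectional_of_sylow {G : Type u} [Group G] [Finite G] {k : ℕ} (S : Sylow 2 G)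
    (h : Cfsg.SectionalPRankLE 2 k (S : Subgroup G)) : Cfsg.SectionalPRankLE 2 k G := by
  haveI : Fact (Nat.Prime 2) := ⟨Nat.prime_two⟩
  intro H N _ A hA hA2
  let π : H →* H ⧸ N := QuotientGroup.mk' N
  let P : Subgroup H := A.comap π
  let f : P →* A := (π.comp P.subtype).codRestrict A fun x => x.2
  have hf : Function.Surjective f := by
    rintro ⟨a, ha⟩
    obtain ⟨y, rfl⟩ := QuotientGroup.mk'_surjective N a
    exact ⟨⟨y, ha⟩, rfl⟩
  obtain ⟨R⟩ : Nonempty (Sylow 2 P) := inferInstance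
  have hA2' : IsPGroup 2 A := fun a => ⟨1, Subtype.ext (by simpa using hA2 a a.2)⟩
  have hmap : (R : Subgroup P).map f = ⊤ := by
    rw [← Subgroup.index_eq_one]
    obtain ⟨e, he⟩ := hA2'.index ((R : Subgroup P).map f)
    rcases Nat.eq_zero_or_pos e with rfl | hepos
    · simpa using he
    · exfalso
      refine R.not_dvd_index ((dvd_pow_self 2 (by omega : e ≠ 0)).trans ?_)
      rw [← he]
      exact Subgroup.index_map_dvd _ hf
  let g : (R : Subgroup P) →* G := H.subtype.comp (P.subtype.comp (R : Subgroup P).subtype)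
  have hg : Function.Injective g :=
    H.subtype_injective.comp (P.subtype_injective.comp (R : Subgroup P).subtype_injective)
  have hgp : IsPGroup 2 g.range :=
    R.isPGroup'.of_surjective g.rangeRestrict g.rangeRestrict_surjective
  obtain ⟨S', hS'⟩ := hgp.exists_le_sylow
  have h' : Cfsg.SectionalPRankLE 2 k (S' : Subgroup G) :=
    Cfsg.Agent.TwoGroups.sectional_of_injective (Sylow.equiv S' S).toMonoidHom
      (Sylow.equiv S' S).injective h
  have hR : Cfsg.SectionalPRankLE 2 k (R : Subgroup P) :=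
    Cfsg.Agent.TwoGroups.sectional_of_injective
      ((Subgroup.inclusion hS').comp g.rangeRestrict)
      ((Subgroup.inclusion_injective hS').comp (fun a b hab => hg (congrArg (fun z : g.range => (z : G)) hab))) h'
  let f' : (R : Subgroup P) →* A := f.comp (R : Subgroup P).subtype
  have hf' : Function.Surjective f' := fun a => by
    have : a ∈ (R : Subgroup P).map f := hmap ▸ Subgroup.mem_top a
    obtain ⟨y, hy, rfl⟩ := this
    exact ⟨⟨y, hy⟩, rfl⟩
  let e := QuotientGroup.quotientKerEquivOfSurjective f' hf'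
  haveI := hA
  have h1 := Cfsg.Agent.TwoGroups.pRankLE_quotient hR f'.ker ⊤
    ⟨⟨fun a b => Subtype.ext (e.injective (by
      rw [Subgroup.coe_mul, Subgroup.coe_mul, map_mul, map_mul]
      exact hA.is_comm.comm _ _))⟩⟩
    (fun a _ => e.injective (by
      rw [map_pow, map_one]
      exact Subtype.ext (by simpa using hA2 (e a) (e a).2)))
  rwa [Subgroup.card_top, Nat.card_congr e.toEquiv] at h1

/-- A 2-subgroup containing a subgroup of odd index in `C` meets `C` in it. -/
theorem inf_le_of_odd {G : Type u} [Group G] [Finite G] {S T C : Subgroup G} (hS : IsPGroup 2 S)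
    (hTS : T ≤ S) (hTC : T ≤ C) (hodd : Odd (T.relIndex C)) : S ⊓ C ≤ T := by
  haveI : Fact (Nat.Prime 2) := ⟨Nat.prime_two⟩
  obtain ⟨e, he⟩ := (hS.to_le (inf_le_left : S ⊓ C ≤ S)).index (T.subgroupOf (S ⊓ C))
  have hd : T.relIndex (S ⊓ C) ∣ T.relIndex C :=
    ⟨_, (Subgroup.relIndex_mul_relIndex T (S ⊓ C) C (le_inf hTS hTC) inf_le_right).symm⟩
  rw [← Subgroup.relIndex_eq_one]
  rcases Nat.eq_zero_or_pos e with rfl | hepos
  · simpa [Subgroup.relIndex] using he
  · exfalso
    rw [Subgroup.relIndex, he] at hd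
    exact (Nat.not_even_iff_odd.2 hodd) (even_iff_two_dvd.2
      ((dvd_pow_self 2 (by omega : e ≠ 0)).trans hd))

variable {S : Type u} [Group S] [Finite S]

/-- An elementary section inside a subgroup of sectional rank at most `k` is small. -/
theorem bound_of_sectional {k : ℕ} {M H N : Subgroup S} (hM : Cfsg.SectionalPRankLE 2 k M)
    (hHM : H ≤ M) (e : Elem2 H N) : Nat.card H ≤ 2 ^ k * Nat.card N := by
  have hH : Cfsg.SectionalPRankLE 2 k H :=
    Cfsg.Agent.TwoGroups.sectional_of_injective _ (Subgroup.inclusion_injective hHM) hM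
  set N' := N.subgroupOf H with hN'
  haveI : N'.Normal := ⟨fun n hn g => by
    rw [hN', Subgroup.mem_subgroupOf] at hn ⊢
    simpa using e.conj g.2 hn⟩
  have h1 := Cfsg.Agent.TwoGroups.pRankLE_quotient hH N' ⊤
    ⟨⟨fun a b => by
      obtain ⟨a, ha⟩ := QuotientGroup.mk'_surjective N' a.1
      obtain ⟨b, hb⟩ := QuotientGroup.mk'_surjective N' b.1
      apply Subtype.ext
      rw [Subgroup.coe_mul, Subgroup.coe_mul, ← ha, ← hb, ← map_mul, ← map_mul,
        QuotientGroup.mk'_apply, QuotientGroup.mk'_apply, QuotientGroup.eq,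
        hN', Subgroup.mem_subgroupOf]
      simpa [mul_assoc] using e.comm _ (H.inv_mem b.2) _ (H.inv_mem a.2)⟩⟩
    (fun a _ => by
      obtain ⟨a, rfl⟩ := QuotientGroup.mk'_surjective N' a
      rw [← map_pow, QuotientGroup.mk'_apply, QuotientGroup.eq_one_iff, hN',
        Subgroup.mem_subgroupOf, pow_two]
      exact e.sq _ a.2)
  rw [Subgroup.card_top] at h1
  rw [← Nat.card_congr (Subgroup.subgroupOfEquivOfLe e.le).toEquiv, ← hN',
    Subgroup.card_eq_card_quotient_mul_card_subgroup N']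
  exact Nat.mul_le_mul_right _ h1

/-- A direct product `T = D × B` with `T` the centralizer of each involution of the four-group. -/
structure DByFour (T D B : Subgroup S) : Prop where
  two : IsPGroup 2 S
  D_le : D ≤ T
  B_le : B ≤ T
  comm : ∀ a ∈ D, ∀ b ∈ B, a * b = b * a
  inf : D ⊓ B = ⊥
  sup : D ⊔ B = T
  cardB : Nat.card B = 4
  sqB : ∀ b ∈ B, b * b = 1
  cent : ∀ b ∈ B, b ≠ 1 → Subgroup.centralizer ({b} : Set S) = T

namespace DByFour

variable {T D B : Subgroup S} (h : DByFour T D B)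
include h

theorem commB {b c : S} (hb : b ∈ B) (hc : c ∈ B) : b * c = c * b := by
  have h1 := h.sqB _ (B.mul_mem hb hc)
  calc b * c = (b * c)⁻¹ := eq_inv_of_mul_eq_one_left h1
    _ = c⁻¹ * b⁻¹ := mul_inv_rev b c
    _ = c * b := by
      rw [inv_eq_of_mul_eq_one_left (h.sqB _ hb), inv_eq_of_mul_eq_one_left (h.sqB _ hc)]

theorem mem_T {t : S} (ht : t ∈ T) : ∃ d ∈ D, ∃ b ∈ B, t = d * b := by
  rw [← h.sup, Subgroup.sup_eq_closure] at ht
  induction ht using Subgroup.closure_induction with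
  | mem x hx =>
    rcases hx with hx | hx
    · exact ⟨x, hx, 1, B.one_mem, (mul_one x).symm⟩
    · exact ⟨1, D.one_mem, x, hx, (one_mul x).symm⟩
  | one => exact ⟨1, D.one_mem, 1, B.one_mem, (mul_one _).symm⟩
  | mul x y _ _ hx hy =>
    obtain ⟨d, hd, b, hb, rfl⟩ := hx
    obtain ⟨e, he, c, hc, rfl⟩ := hy
    refine ⟨d * e, D.mul_mem hd he, b * c, B.mul_mem hb hc, ?_⟩
    calc d * b * (e * c) = d * (b * e) * c := by group
      _ = _ := by rw [← h.comm e he b hb]; group
  | inv x _ hx =>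
    obtain ⟨d, hd, b, hb, rfl⟩ := hx
    exact ⟨d⁻¹, D.inv_mem hd, b⁻¹, B.inv_mem hb, by
      rw [mul_inv_rev, h.comm _ (D.inv_mem hd) _ (B.inv_mem hb)]⟩

theorem exists_pair : ∃ b ∈ B, ∃ c ∈ B, b ≠ 1 ∧ c ≠ 1 ∧ b ≠ c := by
  classical
  haveI := Fintype.ofFinite B
  have h4 : (Finset.univ : Finset B).card = 4 := by
    rw [Finset.card_univ, ← Nat.card_eq_fintype_card, h.cardB]
  obtain ⟨b, hb⟩ : ((Finset.univ : Finset B).erase 1).Nonempty := by
    rw [← Finset.card_pos, Finset.card_erase_of_mem (Finset.mem_univ _), h4]; norm_num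
  obtain ⟨c, hc⟩ : (((Finset.univ : Finset B).erase 1).erase b).Nonempty := by
    rw [← Finset.card_pos, Finset.card_erase_of_mem hb,
      Finset.card_erase_of_mem (Finset.mem_univ _), h4]; norm_num
  rw [Finset.mem_erase, Finset.mem_erase] at hc
  rw [Finset.mem_erase] at hb
  exact ⟨b, b.2, c, c.2, fun e => hb.1 (Subtype.ext e), fun e => hc.2.1 (Subtype.ext e),
    fun e => hc.1 (Subtype.ext e.symm)⟩

theorem commT {b t : S} (hb : b ∈ B) (ht : t ∈ T) : t * b = b * t := by
  by_cases hb1 : b = 1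
  · simp [hb1]
  · rw [← h.cent b hb hb1] at ht
    exact Subgroup.mem_centralizer_singleton_iff.1 ht

/-- With a center of order two in `D`, the group is `T` itself. -/
theorem eq_top (hcen : ∀ d ∈ D, ∀ e ∈ D, d ≠ 1 → e ≠ 1 → (∀ y ∈ D, d * y = y * d) →
    (∀ y ∈ D, e * y = y * e) → d = e) : T = ⊤ := by
  by_contra hne
  haveI : Fact (Nat.Prime 2) := ⟨Nat.prime_two⟩
  haveI : Group.IsNilpotent S := h.two.isNilpotent
  obtain ⟨b₁, hb₁, b₂, hb₂, hb₁1, hb₂1, hb₁₂⟩ := h.exists_pair
  -- the central involution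
  have hS : (⊤ : Subgroup S) ≠ ⊥ := fun e => hb₁1 (by
    have : b₁ ∈ (⊤ : Subgroup S) := Subgroup.mem_top _
    rwa [e, Subgroup.mem_bot] at this)
  obtain ⟨w, -, hwc, hw2⟩ :=
    Cfsg.Agent.TwoGroups.exists_central_involution_of_normal h.two ⊤ hS
  have hwc' : ∀ s, s * w = w * s := Subgroup.mem_center_iff.1 hwc
  have hwT : w ∈ T := by
    rw [← h.cent b₁ hb₁ hb₁1, Subgroup.mem_centralizer_singleton_iff]
    exact (hwc' b₁).symm
  have hwsq : w * w = 1 := by rw [← pow_two, ← hw2, pow_orderOf_eq_one]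
  obtain ⟨d, hd, b₀, hb₀, hw⟩ := h.mem_T hwT
  have hdc : ∀ y ∈ D, d * y = y * d := fun y hy => by
    have h1 := hwc' y
    rw [hw] at h1
    refine mul_right_cancel (b := b₀) ?_
    calc d * y * b₀ = d * (b₀ * y) := by rw [mul_assoc, h.comm y hy b₀ hb₀]
      _ = d * b₀ * y := by group
      _ = y * (d * b₀) := h1.symm
      _ = y * d * b₀ := by group
  have hd1 : d ≠ 1 := fun e => hne (by
    have hwB : w ∈ B := by rw [hw, e, one_mul]; exact hb₀
    have hw1 : w ≠ 1 := fun e' => by simp [e'] at hw2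
    rw [← h.cent w hwB hw1, eq_top_iff]
    exact fun s _ => Subgroup.mem_centralizer_singleton_iff.2 (hwc' s))
  -- central elements of `T`
  have hZ : ∀ z ∈ T, (∀ t ∈ T, z * t = t * z) → z ∈ B ∨ ∃ c ∈ B, z = w * c := by
    intro z hz hzc
    obtain ⟨e, he, c, hc, rfl⟩ := h.mem_T hz
    by_cases he1 : e = 1
    · exact Or.inl (by rw [he1, one_mul]; exact hc)
    · right
      have hec : ∀ y ∈ D, e * y = y * e := fun y hy => by
        refine mul_right_cancel (b := c) ?_
        calc e * y * c = e * (c * y) := by rw [mul_assoc, h.comm y hy c hc]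
          _ = (e * c) * y := by group
          _ = y * (e * c) := hzc y (h.D_le hy)
          _ = y * e * c := by group
      refine ⟨b₀ * c, B.mul_mem hb₀ hc, ?_⟩
      rw [hw, hcen e he d hd he1 hd1 hec hdc]
      calc d * c = d * (b₀ * b₀) * c := by rw [h.sqB _ hb₀, mul_one]
        _ = _ := by group
  -- an element normalizing `T` outside it
  obtain ⟨n, hnN, hnT⟩ :=
    SetLike.exists_of_lt
      (Group.normalizerCondition_of_isNilpotent (G := S) T (lt_top_iff_ne_top.2 hne))
  obtain ⟨n, hnN, hnT, hn2⟩ : ∃ n, n ∈ Subgroup.normalizer (T : Set S) ∧ n ∉ T ∧ n * n ∈ T := by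
    classical
    obtain ⟨k, hk⟩ := h.two n
    have hex : ∃ k, n ^ (2 ^ k) ∈ T := ⟨k, by rw [hk]; exact T.one_mem⟩
    have h0 : Nat.find hex ≠ 0 := fun e => hnT (by simpa [e] using Nat.find_spec hex)
    obtain ⟨j, hj⟩ := Nat.exists_eq_succ_of_ne_zero h0
    refine ⟨n ^ (2 ^ j), pow_mem hnN _, Nat.find_min hex (by omega), ?_⟩
    rw [← pow_add, ← two_mul, ← pow_succ', ← Nat.succ_eq_add_one, ← hj]
    exact Nat.find_spec hex
  have hfT : ∀ t ∈ T, n * t * n⁻¹ ∈ T := fun t ht =>
    (Subgroup.mem_normalizer_iff.1 hnN t).1 ht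
  have hfT' : ∀ t ∈ T, n⁻¹ * t * n ∈ T := fun t ht => by
    have := (Subgroup.mem_normalizer_iff.1 ((Subgroup.normalizer (T : Set S)).inv_mem hnN) t).1 ht
    simpa using this
  have hfix : ∀ c ∈ B, n * c * n⁻¹ = c → c = 1 := fun c hc e => by
    by_contra hc1
    apply hnT
    rw [← h.cent c hc hc1, Subgroup.mem_centralizer_singleton_iff]
    exact mul_inv_eq_iff_eq_mul.1 e
  have hkey : ∀ b ∈ B, b ≠ 1 → n * b * n⁻¹ = b * w := by
    intro b hb hb1
    have hfb : n * b * n⁻¹ ∈ T := hfT b (h.B_le hb)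
    have hfc : ∀ t ∈ T, n * b * n⁻¹ * t = t * (n * b * n⁻¹) := fun t ht => by
      calc n * b * n⁻¹ * t = n * (b * (n⁻¹ * t * n)) * n⁻¹ := by group
        _ = n * ((n⁻¹ * t * n) * b) * n⁻¹ := by rw [h.commT hb (hfT' t ht)]
        _ = _ := by group
    set g := b * (n * b * n⁻¹) with hgdef
    have hg : g ∈ T := T.mul_mem (h.B_le hb) hfb
    have hgc : ∀ t ∈ T, g * t = t * g := fun t ht =>
      ((show Commute b t from (h.commT hb ht).symm).mul_left (hfc t ht)).eq
    have hgf : n * g * n⁻¹ = g := by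
      have hnn : (n * n) * b * (n * n)⁻¹ = b := by
        rw [h.commT hb hn2]; group
      calc n * g * n⁻¹ = (n * b * n⁻¹) * ((n * n) * b * (n * n)⁻¹) := by rw [hgdef]; group
        _ = (n * b * n⁻¹) * b := by rw [hnn]
        _ = g := by rw [hgdef]; exact hfc b (h.B_le hb)
    rcases hZ g hg hgc with hgB | ⟨c, hc, hgc'⟩
    · exfalso
      apply hb1
      refine hfix b hb ?_
      have hg1 := hfix g hgB hgf
      rw [hgdef] at hg1
      rw [eq_inv_of_mul_eq_one_right hg1, inv_eq_of_mul_eq_one_left (h.sqB b hb)]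
    · have hnw : n * w * n⁻¹ = w := by rw [hwc' n]; group
      have hc1 : c = 1 := hfix c hc (by
        refine mul_left_cancel (a := w) ?_
        calc w * (n * c * n⁻¹) = (n * w * n⁻¹) * (n * c * n⁻¹) := by rw [hnw]
          _ = n * (w * c) * n⁻¹ := by group
          _ = w * c := by rw [← hgc']; exact hgf)
      rw [hc1, mul_one] at hgc'
      calc n * b * n⁻¹ = (b * b) * (n * b * n⁻¹) := by rw [h.sqB b hb, one_mul]
        _ = b * g := by rw [hgdef]; group
        _ = b * w := by rw [hgc']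
  have h3 : b₁ * b₂ ≠ 1 := fun e => hb₁₂ (by
    rw [eq_inv_of_mul_eq_one_left e, inv_eq_of_mul_eq_one_left (h.sqB _ hb₂)])
  apply h3
  refine hfix _ (B.mul_mem hb₁ hb₂) ?_
  calc n * (b₁ * b₂) * n⁻¹ = (n * b₁ * n⁻¹) * (n * b₂ * n⁻¹) := by group
    _ = b₁ * (w * b₂) * w := by rw [hkey _ hb₁ hb₁1, hkey _ hb₂ hb₂1]; group
    _ = b₁ * b₂ * (w * w) := by rw [← hwc' b₂]; group
    _ = b₁ * b₂ := by rw [hwsq, mul_one]

/-- The bound when `T` is the whole group and `D` has a cyclic subgroup of index two. -/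
theorem bound_top (hT : T = ⊤) {r : S} (hr : r ∈ D) (hcard : Nat.card D ≤ 2 * orderOf r)
    {H N : Subgroup S} (e : Elem2 H N) : Nat.card H ≤ 16 * Nat.card N := by
  classical
  have dec : ∀ x : S, ∃ d ∈ D, ∃ b ∈ B, x = d * b := fun x =>
    h.mem_T (hT ▸ Subgroup.mem_top x)
  choose dp hdp bp hbp hdec using dec
  let R : Subgroup S :=
    { carrier := {x | ∃ i : ℤ, ∃ b ∈ B, x = r ^ i * b}
      one_mem' := ⟨0, 1, B.one_mem, by simp⟩
      mul_mem' := by
        rintro _ _ ⟨i, b, hb, rfl⟩ ⟨j, c, hc, rfl⟩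
        refine ⟨i + j, b * c, B.mul_mem hb hc, ?_⟩
        calc r ^ i * b * (r ^ j * c) = r ^ i * (b * r ^ j) * c := by group
          _ = _ := by rw [← h.comm _ (D.zpow_mem hr j) b hb, zpow_add]; group
      inv_mem' := by
        rintro _ ⟨i, b, hb, rfl⟩
        exact ⟨-i, b⁻¹, B.inv_mem hb, by
          rw [mul_inv_rev, ← h.comm _ (D.inv_mem (D.zpow_mem hr i)) _ (B.inv_mem hb), zpow_neg]⟩ }
  have hRc : ∀ x ∈ R, ∀ y ∈ R, Commute x y := by
    rintro _ ⟨i, b, hb, rfl⟩ _ ⟨j, c, hc, rfl⟩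
    exact ((Commute.zpow_zpow_self r i j).mul_right (h.comm _ (D.zpow_mem hr i) c hc)).mul_left
      ((show Commute b (r ^ j) from (h.comm _ (D.zpow_mem hr j) b hb).symm).mul_right (h.commB hb hc))
  have hBR : B ≤ R := fun b hb => ⟨0, b, hb, by simp⟩
  -- step one
  let Z : Subgroup D := Subgroup.zpowers ⟨r, hr⟩
  have hZ : Nat.card (↥D ⧸ Z) ≤ 2 := by
    rw [← Subgroup.index_eq_card]
    have h1 := Z.card_mul_index
    rw [Nat.card_zpowers, Subgroup.orderOf_mk] at h1
    rw [← h1, mul_comm 2] at hcard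
    exact Nat.le_of_mul_le_mul_left hcard (orderOf_pos r)
  have h1 : Nat.card H ≤ 2 * Nat.card ↥(H ⊓ R) := by
    refine (card_le_mul_inter H R (fun x => (QuotientGroup.mk ⟨dp x, hdp x⟩ : ↥D ⧸ Z))
      fun x _ y _ hxy => ?_).trans (Nat.mul_le_mul_right _ hZ)
    rw [QuotientGroup.eq, Subgroup.mem_zpowers_iff] at hxy
    obtain ⟨i, hi⟩ := hxy
    have hi' : r ^ i = (dp x)⁻¹ * dp y := by simpa using congrArg Subtype.val hi
    refine ⟨i, (bp x)⁻¹ * bp y, B.mul_mem (B.inv_mem (hbp x)) (hbp y), ?_⟩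
    have hc := h.comm _ (D.mul_mem (D.inv_mem (hdp x)) (hdp y)) _ (B.inv_mem (hbp x))
    calc x⁻¹ * y = (dp x * bp x)⁻¹ * (dp y * bp y) := by rw [← hdec x, ← hdec y]
      _ = ((bp x)⁻¹ * ((dp x)⁻¹ * dp y)) * bp y := by group
      _ = r ^ i * ((bp x)⁻¹ * bp y) := by rw [← hc, hi']; group
  -- step two
  let Y : Subgroup S :=
    { carrier := {x | x ∈ R ∧ x * x = 1}
      one_mem' := ⟨R.one_mem, mul_one 1⟩
      mul_mem' := fun {x y} hx hy => ⟨R.mul_mem hx.1 hy.1, by
        calc x * y * (x * y) = (x * x) * (y * y) :=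
              (hRc _ hy.1 _ hx.1).mul_mul_mul_comm x y
          _ = 1 := by rw [hx.2, hy.2, one_mul]⟩
      inv_mem' := fun {x} hx => ⟨R.inv_mem hx.1, by rw [← mul_inv_rev, hx.2, inv_one]⟩ }
  have hY : Nat.card Y ≤ 8 := by
    have h2 : Nat.card Y ≤ 2 * Nat.card ↥(Y ⊓ B) := by
      have := card_le_mul_inter (T := Bool) Y B (fun x => decide (x ∈ B))
        fun x hx y hy hxy => by
        by_cases hxB : x ∈ B
        · exact B.mul_mem (B.inv_mem hxB) (by simpa [hxB] using hxy)
        have hyB : y ∉ B := by simpa [hxB] using hxy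
        obtain ⟨⟨i, b, hb, rfl⟩, hx2⟩ := hx
        obtain ⟨⟨j, c, hc, rfl⟩, hy2⟩ := hy
        have sq1 : ∀ i : ℤ, ∀ b ∈ B, r ^ i * b * (r ^ i * b) = 1 →
            (orderOf r : ℤ) ∣ 2 * i := fun i b hb hh => by
          rw [orderOf_dvd_iff_zpow_eq_one, two_mul, zpow_add]
          rw [← hh, (show Commute b (r ^ i) from (h.comm _ (D.zpow_mem hr i) b hb).symm).mul_mul_mul_comm,
            h.sqB b hb, mul_one]
        have ne1 : ∀ i : ℤ, ∀ b ∈ B, r ^ i * b ∉ B → ¬ (orderOf r : ℤ) ∣ i := fun i b hb hh hd =>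
          hh (by rw [orderOf_dvd_iff_zpow_eq_one.1 hd, one_mul]; exact hb)
        obtain ⟨k, hk⟩ := sq1 i b hb hx2
        obtain ⟨l, hl⟩ := sq1 j c hc hy2
        have hko : ¬ (2 : ℤ) ∣ k := fun ⟨q, hq⟩ => ne1 i b hb hxB ⟨q, by rw [hq] at hk; linarith⟩
        have hlo : ¬ (2 : ℤ) ∣ l := fun ⟨q, hq⟩ => ne1 j c hc hyB ⟨q, by rw [hq] at hl; linarith⟩
        obtain ⟨q, hq⟩ : (2 : ℤ) ∣ l - k := by omega
        have hij : (orderOf r : ℤ) ∣ j - i := ⟨q, by
          have : 2 * (j - i) = 2 * ((orderOf r : ℤ) * q) := by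
            rw [mul_sub, hl, hk, ← mul_sub, hq]; ring
          linarith⟩
        have heq : r ^ j = r ^ i := by
          have := orderOf_dvd_iff_zpow_eq_one.1 hij
          rwa [zpow_sub, mul_inv_eq_one] at this
        rw [heq, mul_inv_rev, mul_assoc, inv_mul_cancel_left]
        exact B.mul_mem (B.inv_mem hb) hc
      simpa using this
    have := Subgroup.card_le_of_le (inf_le_right : Y ⊓ B ≤ B)
    rw [h.cardB] at this
    omega
  have h2 : Nat.card ↥(H ⊓ R) ≤ Nat.card N * Nat.card ↥((H ⊓ R) ⊓ Y) :=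
    card_le_mul_inter (H ⊓ R) Y
      (fun x => if hx : x ∈ H then (⟨x * x, e.sq x hx⟩ : N) else 1) fun x hx y hy hxy => by
        have hx1 : x ∈ H := hx.1
        have hy1 : y ∈ H := hy.1
        rw [dif_pos hx1, dif_pos hy1] at hxy
        have hxy' : x * x = y * y := congrArg Subtype.val hxy
        refine ⟨R.mul_mem (R.inv_mem hx.2) hy.2, ?_⟩
        rw [(hRc _ hy.2 _ (R.inv_mem hx.2)).mul_mul_mul_comm, ← mul_inv_rev, hxy', inv_mul_cancel]
  have h3 : Nat.card ↥((H ⊓ R) ⊓ Y) ≤ 8 :=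
    (Subgroup.card_le_of_le inf_le_right).trans hY
  nlinarith

/-- The bound when `T` is elementary abelian of order sixteen. -/
theorem bound_elementary (hT16 : Nat.card T = 16) (hTc : ∀ a ∈ T, ∀ b ∈ T, a * b = b * a)
    (hTs : ∀ a ∈ T, a * a = 1) : ∀ (n : ℕ) (U : Subgroup S), Nat.card U ≤ n → T ≤ U →
      ∀ H N : Subgroup S, Elem2 H N → H ≤ U → Nat.card H ≤ 16 * Nat.card N := by
  classical
  haveI : Fact (Nat.Prime 2) := ⟨Nat.prime_two⟩
  obtain ⟨b₁, hb₁, -, -, hb₁1, -, -⟩ := h.exists_pair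
  intro n
  induction n with
  | zero => intro U hU; have : 0 < Nat.card U := Nat.card_pos; omega
  | succ n ih =>
    intro U hUn hTU H N e hHU
    by_cases hTH : T ≤ H
    · have h1 := card_le_mul_inter H T
        (fun x => if hx : x ∈ H then (⟨x * b₁ * x⁻¹ * b₁⁻¹,
          e.comm x hx b₁ (hTH (h.B_le hb₁))⟩ : N) else 1) fun x hx y hy hxy => by
          rw [dif_pos hx, dif_pos hy] at hxy
          have hxy' : x * b₁ * x⁻¹ = y * b₁ * y⁻¹ := mul_right_cancel (congrArg Subtype.val hxy)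
          rw [← h.cent b₁ hb₁ hb₁1, Subgroup.mem_centralizer_singleton_iff]
          calc x⁻¹ * y * b₁ = x⁻¹ * (y * b₁ * y⁻¹) * y := by group
            _ = b₁ * (x⁻¹ * y) := by rw [← hxy']; group
      have h2 : Nat.card ↥(H ⊓ T) ≤ 16 := hT16 ▸ Subgroup.card_le_of_le inf_le_right
      calc Nat.card H ≤ Nat.card N * Nat.card ↥(H ⊓ T) := h1
        _ ≤ Nat.card N * 16 := Nat.mul_le_mul_left _ h2
        _ = _ := Nat.mul_comm _ _
    · have hUtwo := h.two.to_subgroup U
      obtain ⟨i, hi⟩ := hUtwo.exists_card_eq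
      obtain ⟨j, hj⟩ := (h.two.to_subgroup H).exists_card_eq
      have hlt : Nat.card H < Nat.card U := by
        rcases lt_or_eq_of_le (Subgroup.card_le_of_le hHU) with hlt | heq
        · exact hlt
        · exact absurd ((Subgroup.eq_of_le_of_card_ge hHU heq.ge).symm ▸ hTU) hTH
      have hji : j < i := (Nat.pow_lt_pow_iff_right (by norm_num : 1 < 2)).1 (hi ▸ hj ▸ hlt)
      obtain ⟨M', hM'c, hHM'⟩ := Sylow.exists_subgroup_card_pow_prime_le (n := j) (m := i - 1) 2
        (by rw [hi]; exact pow_dvd_pow 2 (by omega)) (H.subgroupOf U)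
        (by rw [Nat.card_congr (Subgroup.subgroupOfEquivOfLe hHU).toEquiv, hj]) (by omega)
      set M := M'.map U.subtype with hM
      have hHM : H ≤ M := fun x hx => ⟨⟨x, hHU hx⟩, hHM' (by
        rw [Subgroup.mem_subgroupOf]; exact hx), rfl⟩
      have hMc : Nat.card M = 2 ^ (i - 1) := by
        rw [hM, ← Nat.card_congr (M'.equivMapOfInjective _ U.subtype_injective).toEquiv, hM'c]
      have h2i : 2 ^ i = 2 * 2 ^ (i - 1) := by rw [← pow_succ', show i - 1 + 1 = i by omega]
      by_cases hTM : T ≤ M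
      · exact ih M (by have : 0 < 2 ^ (i - 1) := pow_pos (by norm_num) _; omega) hTM H N e hHM
      · have hidx : M'.index = 2 := by
          have h1 := M'.card_mul_index
          rw [hM'c, hi, h2i, mul_comm 2] at h1
          exact Nat.eq_of_mul_eq_mul_left (pow_pos (by norm_num) _) h1
        have half : ∀ X : Subgroup S, X ≤ U → Nat.card X ≤ 2 * Nat.card ↥(X ⊓ M) := fun X hX => by
          have := card_le_mul_inter (T := Bool) X M (fun x => decide (x ∈ M))
            fun x hx y hy hxy => by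
              have hm : ∀ z (hz : z ∈ U), z ∈ M ↔ (⟨z, hz⟩ : U) ∈ M' := fun z hz =>
                ⟨fun ⟨q, hq, hqe⟩ => by
                  rwa [show (⟨z, hz⟩ : U) = q from Subtype.ext hqe.symm], fun hq => ⟨_, hq, rfl⟩⟩
              have hiff : x ∈ M ↔ y ∈ M := by simpa using hxy
              rw [hm _ (hX hx), hm _ (hX hy)] at hiff
              rw [hm _ (U.mul_mem (U.inv_mem (hX hx)) (hX hy))]
              show (⟨x, hX hx⟩ : U)⁻¹ * ⟨y, hX hy⟩ ∈ M'
              rw [Subgroup.mul_mem_iff_of_index_two hidx, Subgroup.inv_mem_iff]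
              exact hiff
          simpa using this
        have hA8 : Nat.card ↥(T ⊓ M) = 8 := by
          have h1 := half T hTU
          rw [hT16] at h1
          obtain ⟨a, ha⟩ := (h.two.to_subgroup (T ⊓ M)).exists_card_eq
          have hlt : Nat.card ↥(T ⊓ M) < 16 := by
            rcases lt_or_eq_of_le (Subgroup.card_le_of_le (inf_le_left : T ⊓ M ≤ T)) with hh | hh
            · rwa [hT16] at hh
            · exact absurd (inf_eq_left.1 (Subgroup.eq_of_le_of_card_ge inf_le_left hh.ge)) hTM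
          rw [ha] at h1 hlt ⊢
          have : a < 4 := (Nat.pow_lt_pow_iff_right (by norm_num : 1 < 2)).1 hlt
          interval_cases a <;> omega
        obtain ⟨b, hb, hbM, hb1⟩ : ∃ b ∈ B, b ∈ M ∧ b ≠ 1 := by
          by_contra hcon
          push Not at hcon
          have h1 := half B (h.B_le.trans hTU)
          have h2 : B ⊓ M = ⊥ := (Subgroup.eq_bot_iff_forall _).2 fun x hx => hcon x hx.1 hx.2
          rw [h.cardB, h2, Subgroup.card_bot] at h1
          omega
        set A := (T ⊓ M).subgroupOf M with hA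
        have hAc : Nat.card A = 8 := by
          rw [hA, Nat.card_congr (Subgroup.subgroupOfEquivOfLe inf_le_right).toEquiv, hA8]
        have hcomm : IsMulCommutative A :=
          ⟨⟨fun a c => Subtype.ext (Subtype.ext (hTc _ a.2.1 _ c.2.1))⟩⟩
        have hsec : Cfsg.SectionalPRankLE 2 4 M := by
          refine Cfsg.Agent.S1232.result (h.two.to_subgroup M) A ⟨hcomm, fun a ha => ?_⟩ hAc ?_
          · exact Subtype.ext (by simpa [pow_two] using hTs _ ha.1)
          · apply le_antisymm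
            · intro y hy
              have hbA : (⟨b, hbM⟩ : M) ∈ A := ⟨h.B_le hb, hbM⟩
              have h1 := congrArg Subtype.val (Subgroup.mem_centralizer_iff.1 hy _ hbA)
              refine ⟨?_, y.2⟩
              rw [← h.cent b hb hb1]
              exact Subgroup.mem_centralizer_singleton_iff.2 h1.symm
            · intro y hy
              exact Subgroup.mem_centralizer_iff.2 fun a ha => Subtype.ext (hTc _ ha.1 _ hy.1)
        simpa using bound_of_sectional hsec hHM e

/-- The sectional bound from coordinates for `D`. -/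
theorem sectional (hD : ((∀ a ∈ D, ∀ c ∈ D, a * c = c * a) ∧ (∀ a ∈ D, a * a = 1) ∧ Nat.card D = 4) ∨
    ((∀ d ∈ D, ∀ e ∈ D, d ≠ 1 → e ≠ 1 → (∀ y ∈ D, d * y = y * d) →
      (∀ y ∈ D, e * y = y * e) → d = e) ∧ ∃ r ∈ D, Nat.card D ≤ 2 * orderOf r)) :
    Cfsg.SectionalPRankLE 2 4 S := by
  refine sectional_of_bound fun H N e => ?_
  rcases hD with ⟨hc, hs, h4⟩ | ⟨hcen, r, hr, hcard⟩
  · have hTc : ∀ a ∈ T, ∀ b ∈ T, a * b = b * a := by
      intro x hx y hy
      obtain ⟨a, ha, b, hb, rfl⟩ := h.mem_T hx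
      obtain ⟨c, hc', d, hd, rfl⟩ := h.mem_T hy
      exact (((show Commute a c from hc a ha c hc').mul_right (h.comm a ha d hd)).mul_left
        ((show Commute b c from (h.comm c hc' b hb).symm).mul_right (h.commB hb hd))).eq
    have hTs : ∀ a ∈ T, a * a = 1 := by
      intro x hx
      obtain ⟨a, ha, b, hb, rfl⟩ := h.mem_T hx
      rw [(show Commute b a from (h.comm a ha b hb).symm).mul_mul_mul_comm, hs a ha, h.sqB b hb,
        one_mul]
    have hT16 : Nat.card T = 16 := by
      have heq : T = D ⊔ B := h.sup.symm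
      let φ : D × B → T := fun p => ⟨p.1 * p.2, T.mul_mem (h.D_le p.1.2) (h.B_le p.2.2)⟩
      have hφ : Function.Bijective φ := by
        refine ⟨fun p q hpq => ?_, fun t => ?_⟩
        · have h1 : (p.1 : S) * p.2 = q.1 * q.2 := congrArg Subtype.val hpq
          have h2 : (q.1 : S)⁻¹ * p.1 = q.2 * (p.2 : S)⁻¹ := by
            rw [eq_mul_inv_iff_mul_eq, mul_assoc, h1, inv_mul_cancel_left]
          have h3 : (q.1 : S)⁻¹ * p.1 ∈ D ⊓ B :=
            ⟨D.mul_mem (D.inv_mem q.1.2) p.1.2, h2 ▸ B.mul_mem q.2.2 (B.inv_mem p.2.2)⟩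
          rw [h.inf, Subgroup.mem_bot] at h3
          rw [h3] at h2
          exact Prod.ext (Subtype.ext (inv_mul_eq_one.1 h3).symm)
            (Subtype.ext (mul_inv_eq_one.1 h2.symm).symm)
        · obtain ⟨a, ha, b, hb, ht⟩ := h.mem_T t.2
          exact ⟨(⟨a, ha⟩, ⟨b, hb⟩), Subtype.ext ht.symm⟩
      rw [← Nat.card_congr (Equiv.ofBijective φ hφ), Nat.card_prod, h4, h.cardB]
    exact h.bound_elementary hT16 hTc hTs _ ⊤ le_rfl le_top H N e le_top
  · exact h.bound_top (h.eq_top hcen) hr hcard e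

end DByFour

/-- Coordinates for dihedral groups of order at least four and quasi-dihedral groups. -/
theorem dihedral_coords {X : Type v} [Group X]
    (hX : (∃ m : ℕ, 2 ≤ m ∧ Nonempty (X ≃* DihedralGroup m)) ∨ Cfsg.IsQuasiDihedral X) :
    ((∀ a c : X, a * c = c * a) ∧ (∀ a : X, a * a = 1) ∧ Nat.card X = 4) ∨
    ((∀ d e : X, d ≠ 1 → e ≠ 1 → (∀ y, d * y = y * d) → (∀ y, e * y = y * e) → d = e) ∧
      ∃ r : X, Nat.card X ≤ 2 * orderOf r) := by
  rcases hX with ⟨m, hm, ⟨φ⟩⟩ | hq
  · rcases eq_or_lt_of_le hm with rfl | hm3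
    · left
      have key : ∀ p q : DihedralGroup 2, p * q = q * p ∧ p * p = 1 := by decide
      exact ⟨fun a c => φ.injective (by rw [map_mul, map_mul, (key _ _).1]),
        fun a => φ.injective (by rw [map_mul, map_one, (key (φ a) 1).2]),
        by rw [Nat.card_congr φ.toEquiv, DihedralGroup.nat_card]⟩
    · right
      haveI : NeZero m := ⟨by omega⟩
      have key : ∀ p : DihedralGroup m, p ≠ 1 → (∀ y, p * y = y * p) →
          ∃ i : ZMod m, p = .r i ∧ 2 * i.val = m := by
        intro p hp hc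
        rcases p with i | i
        · refine ⟨i, rfl, ?_⟩
          have h1 := hc (.sr 0)
          simp only [DihedralGroup.r_mul_sr, DihedralGroup.sr_mul_r, DihedralGroup.sr.injEq] at h1
          have h2 : ((2 * i.val : ℕ) : ZMod m) = 0 := by
            push_cast
            rw [ZMod.natCast_zmod_val]
            linear_combination -h1
          obtain ⟨k, hk⟩ := (ZMod.natCast_eq_zero_iff _ _).1 h2
          have hlt := ZMod.val_lt i
          have hi0 : i.val ≠ 0 := fun h0 => hp (by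
            rw [(ZMod.val_eq_zero i).1 h0]; exact DihedralGroup.r_zero)
          rcases k with _ | _ | k
          · omega
          · omega
          · exfalso
            have hprod : m * 2 ≤ m * (k + 1 + 1) := Nat.mul_le_mul_left _ (by omega)
            omega
        · exfalso
          have h1 := hc (.r 1)
          simp only [DihedralGroup.r_mul_sr, DihedralGroup.sr_mul_r, DihedralGroup.sr.injEq] at h1
          have h2 : ((2 : ℕ) : ZMod m) = 0 := by push_cast; linear_combination h1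
          have := Nat.le_of_dvd (by norm_num) ((ZMod.natCast_eq_zero_iff _ _).1 h2)
          omega
      refine ⟨fun d e hd he hdc hec => φ.injective ?_, φ.symm (.r 1), ?_⟩
      · obtain ⟨i, hi, hi2⟩ := key (φ d) (fun h => hd (φ.injective (h.trans φ.map_one.symm)))
          fun y => φ.symm.injective (by simpa using hdc (φ.symm y))
        obtain ⟨j, hj, hj2⟩ := key (φ e) (fun h => he (φ.injective (h.trans φ.map_one.symm)))
          fun y => φ.symm.injective (by simpa using hec (φ.symm y))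
        rw [hi, hj, ZMod.val_injective m (by omega : i.val = j.val)]
      · rw [MulEquiv.orderOf_eq, DihedralGroup.orderOf_r_one, Nat.card_congr φ.toEquiv,
          DihedralGroup.nat_card]
  · right
    obtain ⟨n, x, y, hd⟩ := Cfsg.Agent.TwoGroups.QDData.of_isQuasiDihedral hq
    refine ⟨fun d e hd1 he1 hdc hec => ?_, x, ?_⟩
    · obtain ⟨v, -, huniq⟩ := (Nat.card_eq_two_iff' (1 : Subgroup.center X)).1 hd.card_center
      have e1 := huniq ⟨d, Subgroup.mem_center_iff.2 fun y => (hdc y).symm⟩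
        fun h => hd1 (congrArg Subtype.val h)
      have e2 := huniq ⟨e, Subgroup.mem_center_iff.2 fun y => (hec y).symm⟩
        fun h => he1 (congrArg Subtype.val h)
      exact congrArg Subtype.val (e1.trans e2.symm)
    · rw [hd.card, hd.order, pow_succ']

end Cfsg.Agent.Harada
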